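import Cfsg.Agent.OD.Pre
import Cfsg.Agent.H6.J4S.p23D
set_option autoImplicit false
set_option maxRecDepth 100000
set_option Elab.async false
set_option linter.all false
namespace CfH6.J4S
open CfH6
def p23L : List CL := [⟨0, 23, [0, 1, 3, 17, 18, 2], nat_lit 0x1500140013001200110010000f000e000d000c000b000a00090008000700060005000400030002000100000000, 1⟩]
def p23T : List (ℕ × ℕ) := [(0, nat_lit 0x161514131211100f0e0d0c0b0a090807060504030201)]
def p23p0 : List (ℕ × ℕ) := [(1, 1), (2, 0), (3, 2), (3, 0), (4, 0), (0, 5), (7, 2), (1, 6), (1, 6), (4, 5), (5, 0), (0, 4), (1, 4), (3, 4), (0, 1), (0, 3)]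
theorem p23b0 : (J4M.ok p23X && Nat.beq (slp J4M.mm J4M.PM.one p23p0 ([] ++ J4M.ms) (J4M.PM.chkS J4M.mm p23X p23L p23T)) 0 &&
  Nat.beq (p23L.map CL.m).prod 23) = true := by decide +kernel
end CfH6.J4S
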