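import Cfsg.Agent.OD.Pre
import Cfsg.Agent.H6.J4S.p23_0
set_option autoImplicit false
set_option maxRecDepth 100000
set_option Elab.async false
set_option linter.all false
namespace CfH6.J4S
open CfH6
theorem p23 : 23 ∣ Nat.card J4M.φ.range := MP.slp_dvd J4M.D (forall_app (forall_nil) cols) _ _ _ _ _ p23b0
end CfH6.J4S
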