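import Cfsg.Agent.OD.Pre
import Cfsg.Agent.H6.J4S.p29D
set_option autoImplicit false
set_option maxRecDepth 100000
set_option Elab.async false
set_option linter.all false
namespace CfH6.J4S
open CfH6
def p29L : List CL := [⟨0, 29, [0, 1, 2, 7, 66, 12, 9], nat_lit 0x1b001a0019001800170016001500140013001200110010000f000e000d000c000b000a00090008000700060005000400030002000100000000, 1⟩]
def p29T : List (ℕ × ℕ) := [(0, nat_lit 0x1c1b1a191817161514131211100f0e0d0c0b0a090807060504030201)]
def p29p0 : List (ℕ × ℕ) := [(1, 3), (1, 2), (1, 2), (0, 4), (1, 2), (8, 4), (1, 5), (4, 1), (2, 4), (4, 0), (0, 3), (0, 3), (3, 0), (0, 2)]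
theorem p29b0 : (J4M.ok p29X && Nat.beq (slp J4M.mm J4M.PM.one p29p0 ([] ++ J4M.ms) (J4M.PM.chkS J4M.mm p29X p29L p29T)) 0 &&
  Nat.beq (p29L.map CL.m).prod 29) = true := by decide +kernel
end CfH6.J4S
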