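import Cfsg.Agent.OD.Pre
import Cfsg.Agent.H6.J4S.p3D
set_option autoImplicit false
set_option maxRecDepth 100000
set_option Elab.async false
set_option linter.all false
namespace CfH6.J4S
open CfH6
def p3p0 : List (ℕ × ℕ) := [(0, 1), (2, 1), (1, 3), (0, 0), (1, 0), (5, 3), (3, 6), (8, 6), (7, 4), (3, 7), (0, 7), (7, 2), (3, 7), (7, 0), (7, 4), (0, 7), (2, 7), (3, 7), (7, 5), (1, 7), (2, 4), (0, 8), (0, 0), (0, 0), (0, 2), (27, 25), (28, 0), (0, 0), (0, 1), (1, 3), (1, 0), (31, 33), (0, 32), (2, 0), (4, 0), (9, 37), (4, 3), (37, 10), (1, 0), (3, 0), (13, 3), (10, 0), (5, 8), (13, 15), (0, 1), (5, 14), (12, 0), (4, 0), (3, 0), (14, 0), (15, 0), (16, 0), (9, 0), (14, 0), (14, 0), (13, 0), (16, 0), (26, 0), (23, 0), (28, 0)]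
theorem p3b0 : Nat.beq (slp J4M.mm J4M.PM.one p3p0 ([] ++ J4M.ms) (outs J4M.PM.one [(47, p3o0), (46, p3o1), (45, p3o2), (44, p3o3), (43, p3o4), (42, p3o5), (41, p3o6), (40, p3o7), (35, p3o8), (29, p3o9), (26, p3o10), (25, p3o11), (21, p3o12), (20, p3o13), (18, p3o14), (17, p3o15), (15, p3o16), (0, p3o17)])) 0 = true := by decide +kernel
end CfH6.J4S
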