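import Cfsg.Agent.OD.Pre
import Cfsg.Agent.H6.J4S.p3D
set_option autoImplicit false
set_option maxRecDepth 100000
set_option Elab.async false
set_option linter.all false
namespace CfH6.J4S
open CfH6
def p3p1 : List (ℕ × ℕ) := [(7, 5), (0, 1), (0, 2), (0, 5), (0, 10), (0, 11), (0, 6), (0, 13), (0, 14), (0, 10), (0, 13), (0, 12), (0, 14), (0, 20), (0, 16), (0, 32), (27, 26), (32, 0), (33, 0), (32, 0), (34, 0), (34, 0), (38, 0), (39, 0), (38, 0), (39, 0), (40, 0), (36, 0), (43, 0), (40, 0), (45, 0), (34, 33), (0, 34), (0, 37), (0, 35), (0, 39), (0, 42), (0, 44), (0, 38), (0, 39), (0, 45), (0, 44), (0, 42), (0, 46), (0, 50), (0, 48), (0, 15), (63, 63), (60, 0), (63, 0), (63, 0), (61, 0), (64, 0), (67, 0), (65, 0), (69, 0), (70, 0), (67, 0), (74, 0), (73, 0), (75, 0), (76, 0), (69, 63), (0, 69), (0, 70), (0, 68), (0, 73), (0, 67), (0, 70), (0, 73), (0, 74), (0, 75), (0, 76), (0, 74), (0, 80), (0, 76), (0, 76), (0,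 15), (88, 92), (91, 0), (92, 0), (90, 0), (96, 0), (96, 0), (97, 0), (94, 0), (99, 0), (103, 0), (98, 0), (100, 0), (106, 0), (106, 0), (104, 0), (91, 98), (0, 94), (0, 101), (0, 99), (0, 100), (0, 104), (0, 103)]
theorem p3b1 : Nat.beq (slp J4M.mm J4M.PM.one p3p1 ([p3o0, p3o1, p3o2, p3o3, p3o4, p3o5, p3o6, p3o7, p3o8, p3o9, p3o10, p3o11, p3o12, p3o13, p3o14, p3o15, p3o16, p3o17] ++ J4M.ms) (outs J4M.PM.one [(84, p3o18), (53, p3o19), (22, p3o20), (7, p3o21), (0, p3o22)])) 0 = true := by decide +kernel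
end CfH6.J4S
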