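import Cfsg.Agent.OD.Pre
import Cfsg.Agent.H6.J4S.p3D
set_option autoImplicit false
set_option maxRecDepth 100000
set_option Elab.async false
set_option linter.all false
namespace CfH6.J4S
open CfH6
def p3L : List CL := [⟨0, 3, [0, 1], nat_lit 0x100000000, 1⟩,
  ⟨3, 3, [0, 1], nat_lit 0x400030000000000000000, 1⟩,
  ⟨6, 3, [0, 4], nat_lit 0x700060000000000000000000000000000, 1⟩]
def p3T : List (ℕ × ℕ) := [(9, nat_lit 0x201), (5, nat_lit 0x30504020100), (0, nat_lit 0x60807050403020100)]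
def p3p2 : List (ℕ × ℕ) := [(20, 1), (0, 7), (0, 7), (0, 9), (0, 10), (0, 8), (0, 25), (19, 21), (21, 0), (21, 0), (24, 0), (22, 0), (21, 0), (21, 0), (29, 0), (23, 0), (31, 0), (25, 0), (32, 0), (29, 0), (29, 0), (36, 0), (25, 25), (0, 23), (0, 28), (0, 26), (0, 29), (0, 27), (0, 34), (0, 32), (0, 31), (0, 35), (0, 34), (0, 34), (0, 35), (0, 37), (0, 37), (0, 15), (56, 55), (0, 46), (1, 56), (3, 58), (2, 60), (36, 50), (6, 1), (52, 6), (7, 0), (5, 7), (7, 5), (1, 5), (5, 4), (3, 5), (1, 3), (6, 4), (0, 4), (0, 0), (0, 0), (5, 9), (0, 11), (0, 7), (7, 0), (0, 8)]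
theorem p3b2 : (J4M.ok p3X && Nat.beq (slp J4M.mm J4M.PM.one p3p2 ([p3o0, p3o1, p3o2, p3o4, p3o5, p3o6, p3o7, p3o8, p3o9, p3o10, p3o11, p3o12, p3o13, p3o14, p3o15, p3o16, p3o18, p3o19, p3o20, p3o21, p3o22] ++ J4M.ms) (J4M.PM.chkS J4M.mm p3X p3L p3T)) 0 &&
  Nat.beq (p3L.map CL.m).prod 27) = true := by decide +kernel
end CfH6.J4S
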