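import Cfsg.Agent.OD.Pre
import Cfsg.Agent.H6.J4S.p3_0
import Cfsg.Agent.H6.J4S.p3_1
import Cfsg.Agent.H6.J4S.p3_2
set_option autoImplicit false
set_option maxRecDepth 100000
set_option Elab.async false
set_option linter.all false
namespace CfH6.J4S
open CfH6
theorem p3h0 : ∀ c ∈ [p3o0, p3o1, p3o2, p3o3, p3o4, p3o5, p3o6, p3o7, p3o8, p3o9, p3o10, p3o11, p3o12, p3o13, p3o14, p3o15, p3o16, p3o17], InR J4M.ok J4M.sem J4M.φ.range c := by
  have := J4M.D.slp_outs (forall_app (forall_nil) cols) _ [(47, p3o0), (46, p3o1), (45, p3o2), (44, p3o3), (43, p3o4), (42, p3o5), (41, p3o6), (40, p3o7), (35, p3o8), (29, p3o9), (26, p3o10), (25, p3o11), (21, p3o12), (20, p3o13), (18, p3o14), (17, p3o15), (15, p3o16), (0, p3o17)] p3b0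
  simp only [List.map_cons, List.map_nil] at this
  exact this
theorem ip3o0 : InR J4M.ok J4M.sem J4M.φ.range p3o0 := p3h0 _ (List.Mem.head _)
theorem ip3o1 : InR J4M.ok J4M.sem J4M.φ.range p3o1 := p3h0 _ (List.Mem.tail _ (List.Mem.head _))
theorem ip3o2 : InR J4M.ok J4M.sem J4M.φ.range p3o2 := p3h0 _ (List.Mem.tail _ (List.Mem.tail _ (List.Mem.head _)))
theorem ip3o3 : InR J4M.ok J4M.sem J4M.φ.range p3o3 := p3h0 _ (List.Mem.tail _ (List.Mem.tail _ (List.Mem.tail _ (List.Mem.head _))))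
theorem ip3o4 : InR J4M.ok J4M.sem J4M.φ.range p3o4 := p3h0 _ (List.Mem.tail _ (List.Mem.tail _ (List.Mem.tail _ (List.Mem.tail _ (List.Mem.head _)))))
theorem ip3o5 : InR J4M.ok J4M.sem J4M.φ.range p3o5 := p3h0 _ (List.Mem.tail _ (List.Mem.tail _ (List.Mem.tail _ (List.Mem.tail _ (List.Mem.tail _ (List.Mem.head _))))))
theorem ip3o6 : InR J4M.ok J4M.sem J4M.φ.range p3o6 := p3h0 _ (List.Mem.tail _ (List.Mem.tail _ (List.Mem.tail _ (List.Mem.tail _ (List.Mem.tail _ (List.Mem.tail _ (List.Mem.head _)))))))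
theorem ip3o7 : InR J4M.ok J4M.sem J4M.φ.range p3o7 := p3h0 _ (List.Mem.tail _ (List.Mem.tail _ (List.Mem.tail _ (List.Mem.tail _ (List.Mem.tail _ (List.Mem.tail _ (List.Mem.tail _ (List.Mem.head _))))))))
theorem ip3o8 : InR J4M.ok J4M.sem J4M.φ.range p3o8 := p3h0 _ (List.Mem.tail _ (List.Mem.tail _ (List.Mem.tail _ (List.Mem.tail _ (List.Mem.tail _ (List.Mem.tail _ (List.Mem.tail _ (List.Mem.tail _ (List.Mem.head _)))))))))
theorem ip3o9 : InR J4M.ok J4M.sem J4M.φ.range p3o9 := p3h0 _ (List.Mem.tail _ (List.Mem.tail _ (List.Mem.tail _ (List.Mem.tail _ (List.Mem.tail _ (List.Mem.tail _ (List.Mem.tail _ (List.Mem.tail _ (List.Mem.tail _ (List.Mem.head _))))))))))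
theorem ip3o10 : InR J4M.ok J4M.sem J4M.φ.range p3o10 := p3h0 _ (List.Mem.tail _ (List.Mem.tail _ (List.Mem.tail _ (List.Mem.tail _ (List.Mem.tail _ (List.Mem.tail _ (List.Mem.tail _ (List.Mem.tail _ (List.Mem.tail _ (List.Mem.tail _ (List.Mem.head _)))))))))))
theorem ip3o11 : InR J4M.ok J4M.sem J4M.φ.range p3o11 := p3h0 _ (List.Mem.tail _ (List.Mem.tail _ (List.Mem.tail _ (List.Mem.tail _ (List.Mem.tail _ (List.Mem.tail _ (List.Mem.tail _ (List.Mem.tail _ (List.Mem.tail _ (List.Mem.tail _ (List.Mem.tail _ (List.Mem.head _))))))))))))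
theorem ip3o12 : InR J4M.ok J4M.sem J4M.φ.range p3o12 := p3h0 _ (List.Mem.tail _ (List.Mem.tail _ (List.Mem.tail _ (List.Mem.tail _ (List.Mem.tail _ (List.Mem.tail _ (List.Mem.tail _ (List.Mem.tail _ (List.Mem.tail _ (List.Mem.tail _ (List.Mem.tail _ (List.Mem.tail _ (List.Mem.head _)))))))))))))
theorem ip3o13 : InR J4M.ok J4M.sem J4M.φ.range p3o13 := p3h0 _ (List.Mem.tail _ (List.Mem.tail _ (List.Mem.tail _ (List.Mem.tail _ (List.Mem.tail _ (List.Mem.tail _ (List.Mem.tail _ (List.Mem.tail _ (List.Mem.tail _ (List.Mem.tail _ (List.Mem.tail _ (List.Mem.tail _ (List.Mem.tail _ (List.Mem.head _))))))))))))))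
theorem ip3o14 : InR J4M.ok J4M.sem J4M.φ.range p3o14 := p3h0 _ (List.Mem.tail _ (List.Mem.tail _ (List.Mem.tail _ (List.Mem.tail _ (List.Mem.tail _ (List.Mem.tail _ (List.Mem.tail _ (List.Mem.tail _ (List.Mem.tail _ (List.Mem.tail _ (List.Mem.tail _ (List.Mem.tail _ (List.Mem.tail _ (List.Mem.tail _ (List.Mem.head _)))))))))))))))
theorem ip3o15 : InR J4M.ok J4M.sem J4M.φ.range p3o15 := p3h0 _ (List.Mem.tail _ (List.Mem.tail _ (List.Mem.tail _ (List.Mem.tail _ (List.Mem.tail _ (List.Mem.tail _ (List.Mem.tail _ (List.Mem.tail _ (List.Mem.tail _ (List.Mem.tail _ (List.Mem.tail _ (List.Mem.tail _ (List.Mem.tail _ (List.Mem.tail _ (List.Mem.tail _ (List.Mem.head _))))))))))))))))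
theorem ip3o16 : InR J4M.ok J4M.sem J4M.φ.range p3o16 := p3h0 _ (List.Mem.tail _ (List.Mem.tail _ (List.Mem.tail _ (List.Mem.tail _ (List.Mem.tail _ (List.Mem.tail _ (List.Mem.tail _ (List.Mem.tail _ (List.Mem.tail _ (List.Mem.tail _ (List.Mem.tail _ (List.Mem.tail _ (List.Mem.tail _ (List.Mem.tail _ (List.Mem.tail _ (List.Mem.tail _ (List.Mem.head _)))))))))))))))))
theorem ip3o17 : InR J4M.ok J4M.sem J4M.φ.range p3o17 := p3h0 _ (List.Mem.tail _ (List.Mem.tail _ (List.Mem.tail _ (List.Mem.tail _ (List.Mem.tail _ (List.Mem.tail _ (List.Mem.tail _ (List.Mem.tail _ (List.Mem.tail _ (List.Mem.tail _ (List.Mem.tail _ (List.Mem.tail _ (List.Mem.tail _ (List.Mem.tail _ (List.Mem.tail _ (List.Mem.tail _ (List.Mem.tail _ (List.Mem.head _))))))))))))))))))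
theorem p3h1 : ∀ c ∈ [p3o18, p3o19, p3o20, p3o21, p3o22], InR J4M.ok J4M.sem J4M.φ.range c := by
  have := J4M.D.slp_outs (forall_app (forall_cons ip3o0 (forall_cons ip3o1 (forall_cons ip3o2 (forall_cons ip3o3 (forall_cons ip3o4 (forall_cons ip3o5 (forall_cons ip3o6 (forall_cons ip3o7 (forall_cons ip3o8 (forall_cons ip3o9 (forall_cons ip3o10 (forall_cons ip3o11 (forall_cons ip3o12 (forall_cons ip3o13 (forall_cons ip3o14 (forall_cons ip3o15 (forall_cons ip3o16 (forall_cons ip3o17 (forall_nil))))))))))))))))))) cols) _ [(84, p3o18), (53, p3o19), (22, p3o20), (7, p3o21), (0, p3o22)] p3b1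
  simp only [List.map_cons, List.map_nil] at this
  exact this
theorem ip3o18 : InR J4M.ok J4M.sem J4M.φ.range p3o18 := p3h1 _ (List.Mem.head _)
theorem ip3o19 : InR J4M.ok J4M.sem J4M.φ.range p3o19 := p3h1 _ (List.Mem.tail _ (List.Mem.head _))
theorem ip3o20 : InR J4M.ok J4M.sem J4M.φ.range p3o20 := p3h1 _ (List.Mem.tail _ (List.Mem.tail _ (List.Mem.head _)))
theorem ip3o21 : InR J4M.ok J4M.sem J4M.φ.range p3o21 := p3h1 _ (List.Mem.tail _ (List.Mem.tail _ (List.Mem.tail _ (List.Mem.head _))))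
theorem ip3o22 : InR J4M.ok J4M.sem J4M.φ.range p3o22 := p3h1 _ (List.Mem.tail _ (List.Mem.tail _ (List.Mem.tail _ (List.Mem.tail _ (List.Mem.head _)))))
theorem p3 : 27 ∣ Nat.card J4M.φ.range := MP.slp_dvd J4M.D (forall_app (forall_cons ip3o0 (forall_cons ip3o1 (forall_cons ip3o2 (forall_cons ip3o4 (forall_cons ip3o5 (forall_cons ip3o6 (forall_cons ip3o7 (forall_cons ip3o8 (forall_cons ip3o9 (forall_cons ip3o10 (forall_cons ip3o11 (forall_cons ip3o12 (forall_cons ip3o13 (forall_cons ip3o14 (forall_cons ip3o15 (forall_cons ip3o16 (forall_cons ip3o18 (forall_cons ip3o19 (forall_cons ip3o20 (forall_cons ip3o21 (forall_cons ip3o22 (forall_nil)))))))))))))))))))))) cols) _ _ _ _ _ p3b2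
end CfH6.J4S
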