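import Cfsg.Agent.OD.Pre
import Cfsg.Agent.H6.J4S.p31D
set_option autoImplicit false
set_option maxRecDepth 100000
set_option Elab.async false
set_option linter.all false
namespace CfH6.J4S
open CfH6
def p31L : List CL := [⟨0, 31, [0, 1, 2, 5, 18, 24, 7], nat_lit 0x1d001c001b001a0019001800170016001500140013001200110010000f000e000d000c000b000a00090008000700060005000400030002000100000000, 1⟩]
def p31T : List (ℕ × ℕ) := [(0, nat_lit 0x1e1d1c1b1a191817161514131211100f0e0d0c0b0a090807060504030201)]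
def p31p0 : List (ℕ × ℕ) := [(1, 3), (1, 2), (1, 2), (0, 4), (1, 2), (5, 2), (4, 7), (10, 6), (3, 7), (6, 1), (2, 6), (6, 0), (6, 3), (0, 6), (2, 6), (3, 6), (0, 6), (3, 2), (0, 1)]
theorem p31b0 : (J4M.ok p31X && Nat.beq (slp J4M.mm J4M.PM.one p31p0 ([] ++ J4M.ms) (J4M.PM.chkS J4M.mm p31X p31L p31T)) 0 &&
  Nat.beq (p31L.map CL.m).prod 31) = true := by decide +kernel
end CfH6.J4S
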