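import Cfsg.Agent.OD.Pre
import Cfsg.Agent.H6.J4M
import Cfsg.Agent.H6.Mc
set_option autoImplicit false
set_option maxRecDepth 100000
set_option Elab.async false
set_option linter.all false
namespace CfH6.J4S
open CfH6
instance factP : Fact J4M.PM.p.Prime := ⟨by norm_num⟩
theorem cols : ∀ c ∈ J4M.ms, InR J4M.ok J4M.sem J4M.φ.range c :=
  (show [0, 1, 2, 3].map (lget J4M.ms 0) = J4M.ms by decide +kernel) ▸ J4M.U.inR J4M.range.ge _ (by decide)
end CfH6.J4S
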