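import Cfsg.Agent.OD.Pre
import Cfsg.Agent.H6.J4S.C
set_option autoImplicit false
set_option maxRecDepth 100000
set_option Elab.async false
set_option linter.all false
namespace CfH6.J4S
open CfH6
noncomputable def p5X : ℕ := (nat_lit 0x933b222c3817d9faee53241df0fc2c9e1344723ede39c27cffcc03feda8f66455070eaea4ba39e13126b49bb10010801fa2d90f7d1ac93fd0000000000000000000000040000)
end CfH6.J4S
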