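import Cfsg.Agent.OD.Pre
import Cfsg.Agent.H6.J4S.p5D
set_option autoImplicit false
set_option maxRecDepth 100000
set_option Elab.async false
set_option linter.all false
namespace CfH6.J4S
open CfH6
def p5L : List CL := [⟨0, 5, [0, 1, 2], nat_lit 0x30002000100000000, 1⟩]
def p5T : List (ℕ × ℕ) := [(0, nat_lit 0x4030201)]
def p5p0 : List (ℕ × ℕ) := [(1, 1), (2, 0), (3, 2), (3, 0), (4, 0), (0, 5), (7, 2), (0, 5), (2, 5), (4, 5), (5, 0), (5, 3), (1, 5), (4, 0), (2, 2), (0, 1), (0, 0)]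
theorem p5b0 : (J4M.ok p5X && Nat.beq (slp J4M.mm J4M.PM.one p5p0 ([] ++ J4M.ms) (J4M.PM.chkS J4M.mm p5X p5L p5T)) 0 &&
  Nat.beq (p5L.map CL.m).prod 5) = true := by decide +kernel
end CfH6.J4S
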