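import Cfsg.Agent.OD.Pre
import Cfsg.Agent.H6.J4S.C
set_option autoImplicit false
set_option maxRecDepth 100000
set_option Elab.async false
set_option linter.all false
namespace CfH6.J4S
open CfH6
noncomputable def p7X : ℕ := (nat_lit 0x5f6dc75a572bbd3c8845cd64ceff5ae6c2964f2c37e978eff2126284370743217a8b93416a3388402d2924036d5bd2c98328f768d068aa171aef71f3cdab06a6fc822157f0ea051046196198614b6d6a7530cd7a0000000000000000000002000000)
end CfH6.J4S
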