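import Cfsg.Agent.OD.Pre
import Cfsg.Agent.H6.J4S.h11D
set_option autoImplicit false
set_option maxRecDepth 100000
set_option Elab.async false
set_option linter.all false
namespace CfH6.J4S
open CfH6
def h11p0 : List (ℕ × ℕ) := [(1, 3), (1, 2), (1, 2), (0, 4), (1, 2), (5, 2), (4, 7), (10, 6), (3, 7), (0, 7), (7, 2), (3, 7), (7, 0), (7, 4), (0, 7), (2, 7), (3, 7), (7, 5), (1, 7), (4, 4), (0, 8), (0, 0), (0, 0), (0, 2), (0, 0), (0, 4), (0, 0), (13, 12), (0, 12), (2, 0), (33, 32), (0, 34), (32, 1), (35, 0), (0, 2), (37, 35), (0, 3), (2, 0), (6, 0), (41, 3), (9, 3), (8, 41), (1, 0), (3, 0), (0, 1), (6, 0), (19, 0), (0, 17), (0, 0), (0, 0), (0, 2), (22, 0), (36, 35), (0, 38), (27, 0), (14, 17), (0, 17), (13, 0), (31, 0), (0, 4), (0, 0), (0, 0), (0, 2), (9, 0), (28, 23), (30, 0), (34, 33), (0, 11), (4, 4), (0, 5), (1, 18), (7, 1), (0, 3), (0, 4), (5, 4), (4, 6), (1, 4), (0, 3), (0, 3), (3, 3),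 (0, 1), (0, 0), (0, 1), (68, 71), (0, 69), (0, 73), (0, 73), (0, 69), (0, 70), (0, 70), (0, 74), (0, 72), (0, 74), (0, 74), (59, 50), (51, 0), (61, 0), (59, 0), (32, 0), (33, 0)]
theorem h11b0 : Nat.beq (slp J4M.mm J4M.PM.one h11p0 ([] ++ J4M.ms) (outs J4M.PM.one [(73, h11o0), (61, h11o1), (34, h11o2), (32, h11o3), (19, h11o4), (18, h11o5), (17, h11o6), (6, h11o7), (0, h11o8)])) 0 = true := by decide +kernel
end CfH6.J4S
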