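import Cfsg.Agent.OD.Pre
import Cfsg.Agent.H6.J4S.h11D
set_option autoImplicit false
set_option maxRecDepth 100000
set_option Elab.async false
set_option linter.all false
namespace CfH6.J4S
open CfH6
def h11p1 : List (ℕ × ℕ) := [(3, 8), (2, 0), (5, 0), (5, 0), (7, 0), (0, 5), (0, 13), (0, 0), (1, 12), (0, 13), (14, 15), (4, 2), (17, 1), (2, 5), (0, 5), (2, 5), (0, 22), (6, 3), (3, 6), (6, 2), (5, 6), (5, 2), (3, 2), (0, 5), (0, 3)]
theorem h11b1 : Nat.beq (slp J4M.mm J4M.PM.one h11p1 ([h11o0, h11o1, h11o2, h11o3, h11o4, h11o5, h11o6, h11o7, h11o8] ++ J4M.ms) (outs J4M.PM.one [(3, h11o9), (0, h11o10)])) 0 = true := by decide +kernel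
end CfH6.J4S
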