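import Cfsg.Agent.OD.Pre
import Cfsg.Agent.H6.J4S.h11_0
import Cfsg.Agent.H6.J4S.h11_1
set_option autoImplicit false
set_option maxRecDepth 100000
set_option Elab.async false
set_option linter.all false
namespace CfH6.J4S
open CfH6
theorem h11h0 : ∀ c ∈ [h11o0, h11o1, h11o2, h11o3, h11o4, h11o5, h11o6, h11o7, h11o8], InR J4M.ok J4M.sem J4M.φ.range c := by
  have := J4M.D.slp_outs (forall_app (forall_nil) cols) _ [(73, h11o0), (61, h11o1), (34, h11o2), (32, h11o3), (19, h11o4), (18, h11o5), (17, h11o6), (6, h11o7), (0, h11o8)] h11b0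
  simp only [List.map_cons, List.map_nil] at this
  exact this
theorem ih11o0 : InR J4M.ok J4M.sem J4M.φ.range h11o0 := h11h0 _ (List.Mem.head _)
theorem ih11o1 : InR J4M.ok J4M.sem J4M.φ.range h11o1 := h11h0 _ (List.Mem.tail _ (List.Mem.head _))
theorem ih11o2 : InR J4M.ok J4M.sem J4M.φ.range h11o2 := h11h0 _ (List.Mem.tail _ (List.Mem.tail _ (List.Mem.head _)))
theorem ih11o3 : InR J4M.ok J4M.sem J4M.φ.range h11o3 := h11h0 _ (List.Mem.tail _ (List.Mem.tail _ (List.Mem.tail _ (List.Mem.head _))))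
theorem ih11o4 : InR J4M.ok J4M.sem J4M.φ.range h11o4 := h11h0 _ (List.Mem.tail _ (List.Mem.tail _ (List.Mem.tail _ (List.Mem.tail _ (List.Mem.head _)))))
theorem ih11o5 : InR J4M.ok J4M.sem J4M.φ.range h11o5 := h11h0 _ (List.Mem.tail _ (List.Mem.tail _ (List.Mem.tail _ (List.Mem.tail _ (List.Mem.tail _ (List.Mem.head _))))))
theorem ih11o6 : InR J4M.ok J4M.sem J4M.φ.range h11o6 := h11h0 _ (List.Mem.tail _ (List.Mem.tail _ (List.Mem.tail _ (List.Mem.tail _ (List.Mem.tail _ (List.Mem.tail _ (List.Mem.head _)))))))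
theorem ih11o7 : InR J4M.ok J4M.sem J4M.φ.range h11o7 := h11h0 _ (List.Mem.tail _ (List.Mem.tail _ (List.Mem.tail _ (List.Mem.tail _ (List.Mem.tail _ (List.Mem.tail _ (List.Mem.tail _ (List.Mem.head _))))))))
theorem ih11o8 : InR J4M.ok J4M.sem J4M.φ.range h11o8 := h11h0 _ (List.Mem.tail _ (List.Mem.tail _ (List.Mem.tail _ (List.Mem.tail _ (List.Mem.tail _ (List.Mem.tail _ (List.Mem.tail _ (List.Mem.tail _ (List.Mem.head _)))))))))
theorem h11h1 : ∀ c ∈ [h11o9, h11o10], InR J4M.ok J4M.sem J4M.φ.range c := by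
  have := J4M.D.slp_outs (forall_app (forall_cons ih11o0 (forall_cons ih11o1 (forall_cons ih11o2 (forall_cons ih11o3 (forall_cons ih11o4 (forall_cons ih11o5 (forall_cons ih11o6 (forall_cons ih11o7 (forall_cons ih11o8 (forall_nil)))))))))) cols) _ [(3, h11o9), (0, h11o10)] h11b1
  simp only [List.map_cons, List.map_nil] at this
  exact this
theorem ih11o9 : InR J4M.ok J4M.sem J4M.φ.range h11o9 := h11h1 _ (List.Mem.head _)
theorem ih11o10 : InR J4M.ok J4M.sem J4M.φ.range h11o10 := h11h1 _ (List.Mem.tail _ (List.Mem.head _))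
end CfH6.J4S
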