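import Cfsg.Agent.OD.Pre
import Cfsg.Agent.H6.J4S.p2D
set_option autoImplicit false
set_option maxRecDepth 100000
set_option Elab.async false
set_option linter.all false
namespace CfH6.J4S
open CfH6
def p2p0 : List (ℕ × ℕ) := [(1, 0), (0, 2), (0, 2), (0, 5), (0, 4), (0, 7), (0, 6), (0, 9), (0, 8), (0, 11), (0, 13), (0, 12), (0, 12), (0, 14), (0, 14), (0, 16), (0, 16), (0, 18), (0, 18), (0, 21), (0, 20), (0, 22), (0, 22), (0, 24), (0, 24), (0, 27), (0, 26), (0, 29), (0, 28), (0, 31), (0, 30), (0, 33), (0, 35), (0, 34), (0, 34), (0, 36), (0, 36), (0, 38), (0, 38), (0, 40), (0, 40), (0, 43), (0, 42), (0, 44), (0, 44), (0, 46), (0, 46), (0, 49), (0, 48), (0, 51), (0, 50), (0, 53), (0, 52), (0, 55), (0, 57), (0, 56), (0, 56), (0, 58), (0, 58), (0, 60), (0, 60), (0, 62), (0, 62), (0, 65), (0, 64)]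
theorem p2b0 : Nat.beq (slp J4M.mm J4M.PM.one p2p0 ([] ++ J4M.ms) (outs J4M.PM.one [(58, p2o0), (0, p2o1)])) 0 = true := by decide +kernel
end CfH6.J4S
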