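import Cfsg.Agent.OD.Pre
import Cfsg.Agent.H6.J4S.p2D
set_option autoImplicit false
set_option maxRecDepth 100000
set_option Elab.async false
set_option linter.all false
namespace CfH6.J4S
open CfH6
def p2p1 : List (ℕ × ℕ) := [(2, 1), (2, 0), (5, 0), (2, 6), (1, 5), (1, 3), (3, 1), (3, 1), (3, 1), (1, 1), (0, 2), (0, 2), (0, 0), (0, 0), (0, 2), (0, 0), (0, 4), (19, 21), (22, 0), (21, 0), (23, 0), (23, 0), (25, 0), (25, 0), (27, 0), (27, 0), (29, 0), (32, 0), (32, 0), (31, 0), (34, 0), (33, 0), (36, 0), (35, 0), (38, 0), (37, 0), (39, 0), (39, 0), (42, 0), (41, 0), (44, 0), (43, 0), (45, 0), (45, 0), (47, 0), (47, 0), (49, 0), (49, 0), (51, 0), (54, 0), (54, 0), (53, 0), (56, 0), (55, 0), (58, 0), (57, 0), (60, 0), (59, 0), (61, 0), (61, 0), (64, 0), (63, 0), (66, 0), (65, 0), (67, 0), (67, 0), (69, 0), (69, 0), (71, 0), (71, 0), (73, 0), (76, 0), (76, 0), (75, 0), (78, 0), (77, 0), (80, 0), (79, 0),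 (82, 0), (81, 0), (83, 0), (83, 0), (0, 84), (0, 1), (0, 88), (3, 0), (0, 1), (0, 1), (0, 71), (0, 80), (94, 7), (7, 0), (0, 1), (0, 76), (0, 86), (95, 98), (0, 98), (0, 100), (0, 100), (0, 102)]
theorem p2b1 : Nat.beq (slp J4M.mm J4M.PM.one p2p1 ([p2o0, p2o1] ++ J4M.ms) (outs J4M.PM.one [(83, p2o2), (10, p2o3), (5, p2o4), (0, p2o5)])) 0 = true := by decide +kernel
end CfH6.J4S
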