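import Cfsg.Agent.OD.Pre
import Cfsg.Agent.H6.J4S.p2D
set_option autoImplicit false
set_option maxRecDepth 100000
set_option Elab.async false
set_option linter.all false
namespace CfH6.J4S
open CfH6
def p2p2 : List (ℕ × ℕ) := [(3, 0), (1, 2), (3, 0), (4, 5), (0, 6), (9, 0), (4, 9), (6, 4), (6, 2), (4, 7), (7, 2), (7, 4), (7, 1), (4, 7), (7, 5), (2, 2), (0, 4), (0, 2), (7, 3), (0, 5), (0, 0), (0, 1), (14, 11), (0, 10), (0, 16), (10, 16), (0, 18), (0, 15), (0, 20), (14, 14), (0, 19), (0, 19), (0, 17), (0, 20), (0, 25), (0, 0), (0, 1), (25, 28), (0, 23), (0, 24), (0, 27), (0, 29), (0, 0), (0, 1), (34, 32), (0, 36), (0, 34), (0, 38), (0, 36), (0, 0), (0, 1), (0, 0), (0, 3), (45, 44), (0, 40), (0, 43), (0, 41), (0, 44), (0, 0), (0, 1), (47, 49), (0, 51), (0, 51), (0, 49), (0, 55), (0, 50), (0, 0), (0, 1)]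
theorem p2b2 : Nat.beq (slp J4M.mm J4M.PM.one p2p2 ([p2o2, p2o3, p2o4, p2o5] ++ J4M.ms) (outs J4M.PM.one [(50, p2o6), (46, p2o7), (43, p2o8), (39, p2o9), (31, p2o10), (24, p2o11), (15, p2o12), (8, p2o13), (0, p2o14)])) 0 = true := by decide +kernel
end CfH6.J4S
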